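import Mathlib

/-!
# Central extensions of an elementary abelian group with the same squaring map are isomorphic

Both groups map onto the additive group `L` of exponent two, with central kernels identified with `L`,
and the squaring map of both groups induces the same map `s : L → L`.  A maximal subgroup of the fibre
product meeting the product of the kernels in the diagonal is the graph of an isomorphism.
-/

set_option autoImplicit false
set_option linter.style.haveILetI false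
set_option linter.unusedSectionVars false

namespace Cfsg.Agent.Lib.Suz.TypeA.Ext

theorem nonempty_mulEquiv_of_squares {P₁ P₂ L : Type*} [Group P₁] [Group P₂] [Finite P₁] [Finite P₂]
    [AddCommGroup L]
    (x₁ : P₁ → L) (x₂ : P₂ → L) (ζ₁ : P₁ → L) (ζ₂ : P₂ → L) (s : L → L)
    (hx₁ : ∀ u v, x₁ (u * v) = x₁ u + x₁ v) (hx₂ : ∀ u v, x₂ (u * v) = x₂ u + x₂ v)
    (hs₁ : ∀ l, ∃ u, x₁ u = l)
    (hc₁ : ∀ u v, x₁ u = 0 → u * v = v * u) (hc₂ : ∀ u v, x₂ u = 0 → u * v = v * u)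
    (hζ₁ : ∀ u v, x₁ u = 0 → x₁ v = 0 → ζ₁ (u * v) = ζ₁ u + ζ₁ v)
    (hζ₂ : ∀ u v, x₂ u = 0 → x₂ v = 0 → ζ₂ (u * v) = ζ₂ u + ζ₂ v)
    (inj₁ : ∀ u, x₁ u = 0 → ζ₁ u = 0 → u = 1) (inj₂ : ∀ u, x₂ u = 0 → ζ₂ u = 0 → u = 1)
    (surj₁ : ∀ l, ∃ u, x₁ u = 0 ∧ ζ₁ u = l) (surj₂ : ∀ l, ∃ u, x₂ u = 0 ∧ ζ₂ u = l)
    (hs₂ : ∀ l, ∃ u, x₂ u = l)
    (h2 : ∀ l : L, l + l = 0)
    (hq₁ : ∀ u, ζ₁ (u * u) = s (x₁ u)) (hq₂ : ∀ u, ζ₂ (u * u) = s (x₂ u)) :
    Nonempty (P₁ ≃* P₂) := by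
  classical
  have x1one : x₁ 1 = 0 := by
    have := hx₁ 1 1
    rw [mul_one] at this
    exact left_eq_add.1 this
  have x2one : x₂ 1 = 0 := by
    have := hx₂ 1 1
    rw [mul_one] at this
    exact left_eq_add.1 this
  have x1inv : ∀ u, x₁ u⁻¹ = - x₁ u := fun u => by
    have := hx₁ u u⁻¹
    rw [mul_inv_cancel, x1one] at this
    exact (neg_eq_of_add_eq_zero_right this.symm).symm
  have x2inv : ∀ u, x₂ u⁻¹ = - x₂ u := fun u => by
    have := hx₂ u u⁻¹
    rw [mul_inv_cancel, x2one] at this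
    exact (neg_eq_of_add_eq_zero_right this.symm).symm
  have z1one : ζ₁ 1 = 0 := by
    have := hζ₁ 1 1 x1one x1one
    rw [mul_one] at this
    exact left_eq_add.1 this
  have z2one : ζ₂ 1 = 0 := by
    have := hζ₂ 1 1 x2one x2one
    rw [mul_one] at this
    exact left_eq_add.1 this
  have z1inv : ∀ u, x₁ u = 0 → ζ₁ u⁻¹ = - ζ₁ u := fun u hu => by
    have := hζ₁ u u⁻¹ hu (by rw [x1inv, hu, neg_zero])
    rw [mul_inv_cancel, z1one] at this
    exact (neg_eq_of_add_eq_zero_right this.symm).symm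
  have z2inv : ∀ u, x₂ u = 0 → ζ₂ u⁻¹ = - ζ₂ u := fun u hu => by
    have := hζ₂ u u⁻¹ hu (by rw [x2inv, hu, neg_zero])
    rw [mul_inv_cancel, z2one] at this
    exact (neg_eq_of_add_eq_zero_right this.symm).symm
  -- the diagonal of the kernels
  let K : Subgroup (P₁ × P₂) :=
    { carrier := {p | x₁ p.1 = 0 ∧ x₂ p.2 = 0 ∧ ζ₁ p.1 = ζ₂ p.2}
      one_mem' := ⟨x1one, x2one, by
        show ζ₁ 1 = ζ₂ 1
        rw [z1one, z2one]⟩
      mul_mem' := by
        rintro ⟨a, b⟩ ⟨c, d⟩ ⟨h1, h2', h3⟩ ⟨h4, h5, h6⟩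
        refine ⟨?_, ?_, ?_⟩
        · show x₁ (a * c) = 0
          rw [hx₁, h1, h4, add_zero]
        · show x₂ (b * d) = 0
          rw [hx₂, h2', h5, add_zero]
        · show ζ₁ (a * c) = ζ₂ (b * d)
          rw [hζ₁ a c h1 h4, hζ₂ b d h2' h5]
          exact congrArg₂ (· + ·) h3 h6
      inv_mem' := by
        rintro ⟨a, b⟩ ⟨h1, h2', h3⟩
        refine ⟨?_, ?_, ?_⟩
        · show x₁ a⁻¹ = 0
          rw [x1inv, h1, neg_zero]
        · show x₂ b⁻¹ = 0
          rw [x2inv, h2', neg_zero]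
        · show ζ₁ a⁻¹ = ζ₂ b⁻¹
          rw [z1inv a h1, z2inv b h2']
          exact congrArg Neg.neg h3 }
  have memK : ∀ {p : P₁ × P₂}, p ∈ K ↔ x₁ p.1 = 0 ∧ x₂ p.2 = 0 ∧ ζ₁ p.1 = ζ₂ p.2 := Iff.rfl
  -- the fibre product
  let Δ : Subgroup (P₁ × P₂) :=
    { carrier := {p | x₁ p.1 = x₂ p.2}
      one_mem' := by
        show x₁ 1 = x₂ 1
        rw [x1one, x2one]
      mul_mem' := by
        rintro ⟨a, b⟩ ⟨c, d⟩ h1 h3
        show x₁ (a * c) = x₂ (b * d)
        rw [hx₁, hx₂]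
        exact congrArg₂ (· + ·) h1 h3
      inv_mem' := by
        rintro ⟨a, b⟩ h1
        show x₁ a⁻¹ = x₂ b⁻¹
        rw [x1inv, x2inv]
        exact congrArg Neg.neg h1 }
  have memΔ : ∀ {p : P₁ × P₂}, p ∈ Δ ↔ x₁ p.1 = x₂ p.2 := Iff.rfl
  have hKΔ : K ≤ Δ := fun p hp => by
    rw [memΔ, hp.1, hp.2.1]
  -- central
  have hcent : ∀ k ∈ K, ∀ p : P₁ × P₂, k * p = p * k := fun k hk p =>
    Prod.ext (hc₁ _ _ hk.1) (hc₂ _ _ hk.2.1)
  -- squares
  have hsq : ∀ p ∈ Δ, p * p ∈ K := by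
    rintro ⟨a, b⟩ hp
    have hp' : x₁ a = x₂ b := hp
    refine ⟨?_, ?_, ?_⟩
    · show x₁ (a * a) = 0
      rw [hx₁, h2]
    · show x₂ (b * b) = 0
      rw [hx₂, h2]
    · show ζ₁ (a * a) = ζ₂ (b * b)
      rw [hq₁, hq₂, hp']
  -- commutators
  have hcm : ∀ p ∈ Δ, ∀ q ∈ Δ, p * q * p⁻¹ * q⁻¹ ∈ K := by
    intro p hp q hq
    have h1 := hsq _ (Δ.mul_mem hp hq)
    have h3 := K.inv_mem (hsq p hp)
    have h4 := K.inv_mem (hsq q hq)
    have h5 : p * q * p⁻¹ * q⁻¹ = (p * q * (p * q)) * ((p * p)⁻¹ * (q * q)⁻¹) := by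
      have e1 : q⁻¹ * (p * p)⁻¹ = (p * p)⁻¹ * q⁻¹ := (hcent _ h3 q⁻¹).symm
      calc p * q * p⁻¹ * q⁻¹ = (p * q * (p * q)) * (q⁻¹ * (p⁻¹ * p⁻¹)) * q⁻¹ := by group
        _ = (p * q * (p * q)) * (q⁻¹ * (p * p)⁻¹) * q⁻¹ := by
            congr 3
            group
        _ = (p * q * (p * q)) * ((p * p)⁻¹ * q⁻¹) * q⁻¹ := by rw [e1]
        _ = _ := by group
    rw [h5]
    exact K.mul_mem h1 (K.mul_mem h3 h4)
  -- the family of subgroups
  let 𝒯 : Set (Subgroup (P₁ × P₂)) := {T | K ≤ T ∧ T ≤ Δ ∧ ∀ t ∈ T, x₁ t.1 = 0 → t ∈ K}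
  have h𝒯 : 𝒯.Nonempty := ⟨K, le_rfl, hKΔ, fun t ht _ => ht⟩
  obtain ⟨T, hT⟩ := Set.Finite.exists_maximal (Set.toFinite 𝒯) h𝒯
  obtain ⟨hKT, hTΔ, hTc⟩ := hT.prop
  -- the first projection is onto
  have hp1 : ∀ u : P₁, ∃ e, (u, e) ∈ T := by
    intro u
    by_contra hno
    obtain ⟨e₀, he₀⟩ := hs₂ (x₁ u)
    let d : P₁ × P₂ := (u, e₀)
    have hdΔ : d ∈ Δ := he₀.symm
    let T' : Subgroup (P₁ × P₂) :=
      { carrier := {g | g ∈ T ∨ d⁻¹ * g ∈ T}
        one_mem' := Or.inl T.one_mem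
        mul_mem' := by
          rintro g h (hg | hg) (hh | hh)
          · exact Or.inl (T.mul_mem hg hh)
          · right
            have hgΔ := hTΔ hg
            have e1 := hcm d⁻¹ (Δ.inv_mem hdΔ) g hgΔ
            have e2 : d⁻¹ * (g * h) = (d⁻¹ * g * d⁻¹⁻¹ * g⁻¹) * g * (d⁻¹ * h) := by group
            rw [e2]
            exact T.mul_mem (T.mul_mem (hKT e1) hg) hh
          · right
            have e2 : d⁻¹ * (g * h) = (d⁻¹ * g) * h := by group
            rw [e2]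
            exact T.mul_mem hg hh
          · left
            set t := d⁻¹ * g with ht
            set t' := d⁻¹ * h with ht'
            have hg' : g = d * t := by rw [ht]; group
            have hh' : h = d * t' := by rw [ht']; group
            have e1 := hcm d hdΔ t (hTΔ hg)
            have e2 : g * h = (d * t * d⁻¹ * t⁻¹) * t * (d * d) * t' := by
              rw [hg', hh']
              group
            rw [e2]
            exact T.mul_mem (T.mul_mem (T.mul_mem (hKT e1) hg) (hKT (hsq d hdΔ))) hh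
        inv_mem' := by
          rintro g (hg | hg)
          · exact Or.inl (T.inv_mem hg)
          · right
            set t := d⁻¹ * g with ht
            have hg' : g = d * t := by rw [ht]; group
            have e1 := hcm d⁻¹ (Δ.inv_mem hdΔ) t⁻¹ (Δ.inv_mem (hTΔ hg))
            have e2 : d⁻¹ * g⁻¹ = (d⁻¹ * t⁻¹ * d⁻¹⁻¹ * t⁻¹⁻¹) * t⁻¹ * (d⁻¹ * d⁻¹) := by
              rw [hg']
              group
            rw [e2]
            exact T.mul_mem (T.mul_mem (hKT e1) (T.inv_mem hg))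
              (hKT (hsq _ (Δ.inv_mem hdΔ))) }
    have hT'1 : T ≤ T' := fun g hg => Or.inl hg
    have hT'm : T' ∈ 𝒯 := by
      refine ⟨hKT.trans hT'1, ?_, ?_⟩
      · rintro g (hg | hg)
        · exact hTΔ hg
        · have e1 : g = d * (d⁻¹ * g) := by group
          rw [e1]
          exact Δ.mul_mem hdΔ (hTΔ hg)
      · rintro g (hg | hg) hg0
        · exact hTc g hg hg0
        · exfalso
          set t := d⁻¹ * g with ht
          have hg' : g = d * t := by rw [ht]; group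
          have e1 : x₁ (u * t.1) = 0 := by
            have : g.1 = u * t.1 := by rw [hg']; rfl
            rw [← this]
            exact hg0
          obtain ⟨z₂, hz₂, hz₂'⟩ := surj₂ (ζ₁ (u * t.1))
          have e2 : ((u * t.1, z₂) : P₁ × P₂) ∈ K := ⟨e1, hz₂, hz₂'.symm⟩
          have e3 := T.mul_mem (hKT e2) (T.inv_mem hg)
          apply hno
          refine ⟨z₂ * t.2⁻¹, ?_⟩
          have e4 : ((u * t.1, z₂) : P₁ × P₂) * t⁻¹ = (u, z₂ * t.2⁻¹) := by
            apply Prod.ext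
            · show u * t.1 * t.1⁻¹ = u
              group
            · rfl
          rwa [e4] at e3
    have hTT' : T' ≤ T := hT.le_of_ge hT'm hT'1
    have hd : d ∈ T' := Or.inr (by rw [inv_mul_cancel]; exact T.one_mem)
    exact hno ⟨e₀, hTT' hd⟩
  -- the second projection is onto
  have hp2 : ∀ e : P₂, ∃ u, (u, e) ∈ T := by
    intro e
    obtain ⟨u₀, hu₀⟩ := hs₁ (x₂ e)
    obtain ⟨e', he'⟩ := hp1 u₀
    have e1 : x₂ e' = x₂ e := by
      have : x₁ u₀ = x₂ e' := hTΔ he'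
      rw [← this, hu₀]
    have e2 : x₂ (e * e'⁻¹) = 0 := by
      rw [hx₂, x2inv, e1, add_neg_cancel]
    obtain ⟨z₁, hz₁, hz₁'⟩ := surj₁ (ζ₂ (e * e'⁻¹))
    have e3 : ((z₁, e * e'⁻¹) : P₁ × P₂) ∈ K := ⟨hz₁, e2, hz₁'⟩
    have e4 := T.mul_mem (hKT e3) he'
    refine ⟨z₁ * u₀, ?_⟩
    have e5 : ((z₁, e * e'⁻¹) : P₁ × P₂) * (u₀, e') = (z₁ * u₀, e) := by
      apply Prod.ext
      · rfl
      · show e * e'⁻¹ * e' = e
        group
    rwa [e5] at e4
  -- the projections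
  let f : T →* P₁ := (MonoidHom.fst P₁ P₂).comp T.subtype
  let g : T →* P₂ := (MonoidHom.snd P₁ P₂).comp T.subtype
  have hf : Function.Bijective f := by
    constructor
    · rw [injective_iff_map_eq_one]
      rintro ⟨⟨a, b⟩, ht⟩ h1
      have h3 : a = 1 := h1
      subst h3
      have h4 := hTc _ ht x1one
      have h5 : b = 1 := inj₂ b h4.2.1 (by
        have : ζ₁ 1 = ζ₂ b := h4.2.2
        rw [← this, z1one])
      subst h5
      rfl
    · intro u
      obtain ⟨e, he⟩ := hp1 u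
      exact ⟨⟨(u, e), he⟩, rfl⟩
  have hg : Function.Bijective g := by
    constructor
    · rw [injective_iff_map_eq_one]
      rintro ⟨⟨a, b⟩, ht⟩ h1
      have h3 : b = 1 := h1
      subst h3
      have h0 : x₁ a = x₂ 1 := hTΔ ht
      have h4 := hTc _ ht (by rw [show x₁ (a, (1 : P₂)).1 = x₁ a from rfl, h0, x2one])
      have h5 : a = 1 := inj₁ a h4.1 (by
        have : ζ₁ a = ζ₂ 1 := h4.2.2
        rw [this, z2one])
      subst h5
      rfl
    · intro e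
      obtain ⟨u, hu⟩ := hp2 e
      exact ⟨⟨(u, e), hu⟩, rfl⟩
  exact ⟨(MulEquiv.ofBijective f hf).symm.trans (MulEquiv.ofBijective g hg)⟩

end Cfsg.Agent.Lib.Suz.TypeA.Ext
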