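import Cfsg.Agent.Lib.Suz.Expand

/-!
# Equivariant quadratic maps of a finite field of characteristic two

A map `s` of the field whose second differences are biadditive and not zero, and which is homogeneous
for the multiplicative group with a second field-valued character `lam`, is of the form
`t ↦ c * t ^ 2 ^ i * t ^ 2 ^ j` with `i ≠ j`.
-/

set_option autoImplicit false
set_option linter.style.haveILetI false
set_option linter.unusedSectionVars false

namespace Cfsg.Agent.Lib.Suz.TypeA.Form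

open Cfsg.Agent.Lib.Suz.Expand

variable {L : Type*} [Field L] [Fintype L] {m : ℕ}

theorem bi_expand (hcard : Fintype.card L = 2 ^ m) (hm : 0 < m) (B : L → L → L)
    (h1 : ∀ a a' b, B (a + a') b = B a b + B a' b) (h2 : ∀ a b b', B a (b + b') = B a b + B a b') :
    ∃ d : Fin m → Fin m → L, ∀ a b,
      B a b = ∑ j, (∑ i, d j i * a ^ 2 ^ (i : ℕ)) * b ^ 2 ^ (j : ℕ) := by
  choose c hc using fun a => exists_coeff hcard hm (B a) (h2 a)
  have hadd : ∀ j a a', c (a + a') j = c a j + c a' j := by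
    intro j a a'
    have := coeff_unique hcard (c := c (a + a')) (c' := fun j => c a j + c a' j) (fun y => by
      rw [← hc, h1, hc, hc, ← Finset.sum_add_distrib]
      exact Finset.sum_congr rfl fun i _ => by ring)
    exact congrFun this j
  choose d hd using fun j => exists_coeff hcard hm (fun a => c a j) (hadd j)
  refine ⟨d, fun a b => ?_⟩
  rw [hc]
  exact Finset.sum_congr rfl fun j _ => by rw [hd]

theorem bi_unique (hcard : Fintype.card L = 2 ^ m) {d d' : Fin m → Fin m → L}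
    (h : ∀ a b, ∑ j, (∑ i, d j i * a ^ 2 ^ (i : ℕ)) * b ^ 2 ^ (j : ℕ)
      = ∑ j, (∑ i, d' j i * a ^ 2 ^ (i : ℕ)) * b ^ 2 ^ (j : ℕ)) : d = d' := by
  funext j
  apply coeff_unique hcard
  intro a
  have := coeff_unique hcard (h a)
  exact congrFun this j

/-- The shape of an equivariant quadratic map. -/
theorem quadratic_form (hcard : Fintype.card L = 2 ^ m) (hm : 0 < m) {K : Type*} (μ lam : K → L)
    (s : L → L) (B : L → L → L) (hμ : ∀ l, l ≠ 0 → ∃ h, μ h = l) (hs0 : s 0 = 0)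
    (hB : ∀ a b, s (a + b) = s a + s b + B a b)
    (h1 : ∀ a a' b, B (a + a') b = B a b + B a' b) (h2 : ∀ a b b', B a (b + b') = B a b + B a b')
    (hne : ∃ a b, B a b ≠ 0) (heq : ∀ h t, s (μ h * t) = lam h * s t) :
    ∃ i j : Fin m, i ≠ j ∧ ∃ c : L, c ≠ 0 ∧ ∀ t, s t = c * (t ^ 2 ^ (i : ℕ) * t ^ 2 ^ (j : ℕ)) := by
  classical
  haveI hchar := charP_two hcard hm
  obtain ⟨d, hd⟩ := bi_expand hcard hm B h1 h2
  have hBeq : ∀ h a b, B (μ h * a) (μ h * b) = lam h * B a b := by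
    intro h a b
    have e1 := hB (μ h * a) (μ h * b)
    rw [← mul_add, heq, heq, heq, hB a b] at e1
    have e2 : lam h * (s a + s b + B a b) = lam h * s a + lam h * s b + lam h * B a b := by ring
    rw [e2] at e1
    exact (add_left_cancel e1).symm
  -- a non-zero coefficient
  obtain ⟨j₀, i₀, hd0⟩ : ∃ j i, d j i ≠ 0 := by
    by_contra hno
    push Not at hno
    obtain ⟨a, b, hab⟩ := hne
    apply hab
    rw [hd]
    simp [hno]
  -- the characters are related
  have hlam : ∀ h, lam h = μ h ^ 2 ^ (i₀ : ℕ) * μ h ^ 2 ^ (j₀ : ℕ) := by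
    intro h
    have e1 := bi_unique hcard (d := fun j i => d j i * μ h ^ 2 ^ (i : ℕ) * μ h ^ 2 ^ (j : ℕ))
      (d' := fun j i => lam h * d j i) (fun a b => by
        have e2 := hBeq h a b
        rw [hd, hd a b] at e2
        simp only [mul_pow] at e2
        rw [Finset.mul_sum] at e2
        calc _ = ∑ x, (∑ x_1, d x x_1 * (μ h ^ 2 ^ (x_1 : ℕ) * a ^ 2 ^ (x_1 : ℕ))) *
                  (μ h ^ 2 ^ (x : ℕ) * b ^ 2 ^ (x : ℕ)) := by
              apply Finset.sum_congr rfl
              intro x _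
              simp only [Finset.sum_mul]
              apply Finset.sum_congr rfl
              intro y _
              ring
          _ = _ := e2
          _ = _ := by
              apply Finset.sum_congr rfl
              intro x _
              simp only [Finset.sum_mul, Finset.mul_sum]
              apply Finset.sum_congr rfl
              intro y _
              ring)
    have e3 := congrFun (congrFun e1 j₀) i₀
    have e4 : d j₀ i₀ * (μ h ^ 2 ^ (i₀ : ℕ) * μ h ^ 2 ^ (j₀ : ℕ)) = d j₀ i₀ * lam h := by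
      linear_combination e3
    exact (mul_left_cancel₀ hd0 e4).symm
  -- the form of `s`
  have hform : ∀ t, s t = s 1 * (t ^ 2 ^ (i₀ : ℕ) * t ^ 2 ^ (j₀ : ℕ)) := by
    intro t
    by_cases ht : t = 0
    · subst ht
      rw [hs0, zero_pow (by positivity), zero_mul, mul_zero]
    · obtain ⟨h, rfl⟩ := hμ t ht
      have e1 := heq h 1
      rw [mul_one] at e1
      rw [e1, hlam]
      ring
  have hc : s 1 ≠ 0 := by
    intro h0
    obtain ⟨a, b, hab⟩ := hne
    apply hab
    have e1 := hB a b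
    rw [hform (a + b), hform a, hform b, h0] at e1
    simpa using e1.symm
  have hij : i₀ ≠ j₀ := by
    intro hij
    obtain ⟨a, b, hab⟩ := hne
    apply hab
    have e1 := hB a b
    rw [hform (a + b), hform a, hform b, ← hij] at e1
    have e2 : (a + b) ^ 2 ^ (i₀ : ℕ) = a ^ 2 ^ (i₀ : ℕ) + b ^ 2 ^ (i₀ : ℕ) := add_pow_char_pow a b 2 _
    rw [e2] at e1
    have e3 : (a ^ 2 ^ (i₀ : ℕ) + b ^ 2 ^ (i₀ : ℕ)) * (a ^ 2 ^ (i₀ : ℕ) + b ^ 2 ^ (i₀ : ℕ))
        = a ^ 2 ^ (i₀ : ℕ) * a ^ 2 ^ (i₀ : ℕ) + b ^ 2 ^ (i₀ : ℕ) * b ^ 2 ^ (i₀ : ℕ) := by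
      have : (2 : L) = 0 := CharTwo.two_eq_zero
      linear_combination (a ^ 2 ^ (i₀ : ℕ) * b ^ 2 ^ (i₀ : ℕ)) * this
    rw [e3, mul_add] at e1
    exact left_eq_add.1 e1
  exact ⟨i₀, j₀, hij, s 1, hc, hform⟩

/-- The normal form of the map. -/
theorem exists_normal_form (hcard : Fintype.card L = 2 ^ m) (hm : 0 < m) {i j : Fin m} (hij : i ≠ j)
    {c : L} {s : L → L} (hs : ∀ t, s t = c * (t ^ 2 ^ (i : ℕ) * t ^ 2 ^ (j : ℕ))) :
    ∃ ψ θ : L ≃+* L, ∀ t, s t = c * θ (ψ t * t) := by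
  classical
  haveI hchar := charP_two hcard hm
  haveI : Fact (Nat.Prime 2) := ⟨Nat.prime_two⟩
  haveI : ExpChar L 2 := ExpChar.prime Nat.prime_two
  -- the general case with `a < b`
  have key : ∀ a b : ℕ, a < b → ∃ ψ θ : L ≃+* L, ∀ t, t ^ 2 ^ a * t ^ 2 ^ b = θ (ψ t * t) := by
    intro a b hab
    refine ⟨iterateFrobeniusEquiv L 2 (b - a), iterateFrobeniusEquiv L 2 a, fun t => ?_⟩
    simp only [coe_iterateFrobeniusEquiv, iterateFrobenius_def, map_mul]
    have e1 : b = (b - a) + a := by omega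
    have e2 : 2 ^ b = 2 ^ (b - a) * 2 ^ a := by rw [← pow_add, ← e1]
    rw [← pow_mul, ← e2, mul_comm]
  rcases lt_or_gt_of_ne (fun h => hij (Fin.ext h) : (i : ℕ) ≠ j) with h | h
  · obtain ⟨ψ, θ, h1⟩ := key _ _ h
    exact ⟨ψ, θ, fun t => by rw [hs, h1]⟩
  · obtain ⟨ψ, θ, h1⟩ := key _ _ h
    exact ⟨ψ, θ, fun t => by rw [hs, mul_comm (t ^ 2 ^ (i : ℕ)), h1]⟩

end Cfsg.Agent.Lib.Suz.TypeA.Form
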