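import Cfsg.Agent.Lib.Suz.Sect
import Cfsg.Agent.Lib.Zass.RegField

/-!
# The Frattini quotient as a field

`Q / Z` is an elementary abelian `2`-group of order `|H| + 1`, on whose non-zero elements the commutative
group `H` acts freely, so `Q / Z` is the additive group of a field on which `H` acts by multiplications.
-/

set_option autoImplicit false
set_option linter.style.haveILetI false
set_option linter.unusedSectionVars false

namespace Cfsg.Agent.Lib.Suz.TypeA.Quot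

open Cfsg.Agent.Lib.Suz.Sect

universe u

variable {Γ : Type u} [Group Γ]

/-- The quotient, as an additive group. -/
theorem exists_quot {Q Z : Subgroup Γ} (hZQ : Z ≤ Q) (hZn : ∀ u ∈ Q, ∀ z ∈ Z, u * z * u⁻¹ ∈ Z)
    (hsq : ∀ u ∈ Q, u * u ∈ Z) :
    ∃ (W : Type u) (_ : AddCommGroup W) (π : Q → W), (∀ u v, π (u * v) = π u + π v) ∧
      Function.Surjective π ∧ (∀ u : Q, π u = 0 ↔ (u : Γ) ∈ Z) ∧
      Nat.card Q = Nat.card W * Nat.card Z := by
  classical
  let N : Subgroup Q := Z.subgroupOf Q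
  haveI hNn : N.Normal :=
    ⟨fun n hn g => Subgroup.mem_subgroupOf.2 (hZn g g.2 n (Subgroup.mem_subgroupOf.1 hn))⟩
  have hq2 : ∀ a : Q ⧸ N, a * a = 1 := by
    intro a
    induction a using QuotientGroup.induction_on with
    | H u =>
      rw [← QuotientGroup.mk_mul, QuotientGroup.eq_one_iff]
      exact Subgroup.mem_subgroupOf.2 (hsq u u.2)
  have hqcomm : ∀ a b : Q ⧸ N, a * b = b * a := by
    intro a b
    have hi : ∀ c : Q ⧸ N, c⁻¹ = c := fun c => inv_eq_of_mul_eq_one_left (hq2 c)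
    calc a * b = (a * b)⁻¹ := (hi _).symm
      _ = b⁻¹ * a⁻¹ := mul_inv_rev _ _
      _ = b * a := by rw [hi, hi]
  letI instC : CommGroup (Q ⧸ N) := { (inferInstance : Group (Q ⧸ N)) with mul_comm := hqcomm }
  refine ⟨Additive (Q ⧸ N), inferInstance, fun u => Additive.ofMul (u : Q ⧸ N), ?_, ?_, ?_, ?_⟩
  · intro u v
    rfl
  · intro w
    obtain ⟨a, rfl⟩ := Additive.ofMul.surjective w
    induction a using QuotientGroup.induction_on with
    | H u => exact ⟨u, rfl⟩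
  · intro u
    constructor
    · intro h
      have h1 : (u : Q ⧸ N) = 1 := Additive.ofMul.injective h
      exact Subgroup.mem_subgroupOf.1 ((QuotientGroup.eq_one_iff u).1 h1)
    · intro h
      have h1 : (u : Q ⧸ N) = 1 := (QuotientGroup.eq_one_iff u).2 (Subgroup.mem_subgroupOf.2 h)
      exact congrArg Additive.ofMul h1
  · have h1 := Subgroup.card_eq_card_quotient_mul_card_subgroup N
    have h2 : Nat.card N = Nat.card Z := Nat.card_congr (Subgroup.subgroupOfEquivOfLe hZQ).toEquiv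
    rw [h2] at h1
    exact h1

/-- The field, with the homomorphism from `Q`. -/
theorem exists_x [Finite Γ] {Q H Z : Subgroup Γ} (hZQ : Z ≤ Q)
    (hZn : ∀ u ∈ Q, ∀ z ∈ Z, u * z * u⁻¹ ∈ Z) (hsq : ∀ u ∈ Q, u * u ∈ Z)
    (hQ : IsInv H Q) (hZi : IsInv H Z)
    (hfree : ∀ h ∈ H, h ≠ 1 → ∀ u ∈ Q, cm h u ∈ Z → u ∈ Z)
    (hcomm : ∀ a ∈ H, ∀ b ∈ H, a * b = b * a)
    (hcard : Nat.card Q = (Nat.card H + 1) * Nat.card Z) :
    ∃ (L : Type u) (_ : Field L) (_ : Fintype L) (x μ : Γ → L),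
      Nat.card L = Nat.card H + 1 ∧
      (∀ u ∈ Q, ∀ v ∈ Q, x (u * v) = x u + x v) ∧
      (∀ l, ∃ u ∈ Q, x u = l) ∧
      (∀ u ∈ Q, x u = 0 ↔ u ∈ Z) ∧
      (∀ h ∈ H, ∀ u ∈ Q, x (h * u * h⁻¹) = μ h * x u) ∧
      (∀ l, l ≠ 0 → ∃ h ∈ H, μ h = l) := by
  classical
  obtain ⟨W, instW, π, hπ, hπs, hπk, hπc⟩ := exists_quot hZQ hZn hsq
  haveI : Finite W := Finite.of_surjective π hπs
  have hW : Nat.card W = Nat.card H + 1 := by
    rw [hcard] at hπc
    exact (Nat.eq_of_mul_eq_mul_right Nat.card_pos hπc).symm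
  have hπ1 : π 1 = 0 := by
    have := hπ 1 1
    rw [mul_one] at this
    exact left_eq_add.1 this
  have hπinv : ∀ u, π u⁻¹ = - π u := fun u => by
    have := hπ u u⁻¹
    rw [mul_inv_cancel, hπ1] at this
    exact (neg_eq_of_add_eq_zero_right this.symm).symm
  have hπeq : ∀ u v : Q, π u = π v ↔ ((u : Γ) * (v : Γ)⁻¹) ∈ Z := by
    intro u v
    have e1 : π (u * v⁻¹) = π u - π v := by
      rw [hπ, hπinv, sub_eq_add_neg]
    have e2 := hπk (u * v⁻¹)
    rw [e1, sub_eq_zero] at e2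
    exact e2
  -- the action
  let c : H → Q → Q := fun h u => ⟨(h : Γ) * u * (h : Γ)⁻¹, hQ h h.2 u u.2⟩
  have hcmul : ∀ h u v, c h (u * v) = c h u * c h v := fun h u v => by
    apply Subtype.ext
    show (h : Γ) * ((u : Γ) * v) * (h : Γ)⁻¹ = (h : Γ) * u * (h : Γ)⁻¹ * ((h : Γ) * v * (h : Γ)⁻¹)
    group
  have hcwd : ∀ h u v, π u = π v → π (c h u) = π (c h v) := by
    intro h u v huv
    rw [hπeq] at huv ⊢
    have e1 := hZi h h.2 _ huv
    have e2 : ((c h u : Q) : Γ) * ((c h v : Q) : Γ)⁻¹ = (h : Γ) * ((u : Γ) * (v : Γ)⁻¹) * (h : Γ)⁻¹ := by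
      show (h : Γ) * u * (h : Γ)⁻¹ * ((h : Γ) * v * (h : Γ)⁻¹)⁻¹ = _
      group
    rw [e2]
    exact e1
  let σ : W → Q := Function.surjInv hπs
  have hσ : ∀ w, π (σ w) = w := Function.surjInv_eq hπs
  let φ₀ : H → W →+ W := fun h =>
    { toFun := fun w => π (c h (σ w))
      map_zero' := by
        have e1 : π (σ 0) = π 1 := by rw [hσ, hπ1]
        rw [hcwd h _ _ e1]
        have e2 : c h 1 = 1 := by
          apply Subtype.ext
          show (h : Γ) * ((1 : Q) : Γ) * (h : Γ)⁻¹ = ((1 : Q) : Γ)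
          simp
        rw [e2, hπ1]
      map_add' := fun w w' => by
        have e1 : π (σ (w + w')) = π (σ w * σ w') := by rw [hσ, hπ, hσ, hσ]
        rw [hcwd h _ _ e1, hcmul, hπ] }
  have hφ₀ : ∀ h u, φ₀ h (π u) = π (c h u) := fun h u => hcwd h _ _ (hσ _)
  let φ : H →* AddMonoid.End W :=
    { toFun := φ₀
      map_one' := by
        apply AddMonoidHom.ext
        intro w
        show π (c 1 (σ w)) = w
        have e1 : c 1 (σ w) = σ w := by
          apply Subtype.ext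
          show ((1 : H) : Γ) * (σ w : Γ) * ((1 : H) : Γ)⁻¹ = σ w
          simp
        rw [e1, hσ]
      map_mul' := fun h h' => by
        apply AddMonoidHom.ext
        intro w
        show π (c (h * h') (σ w)) = φ₀ h (π (c h' (σ w)))
        rw [hφ₀]
        have e1 : c (h * h') (σ w) = c h (c h' (σ w)) := by
          apply Subtype.ext
          show ((h * h' : H) : Γ) * (σ w : Γ) * ((h * h' : H) : Γ)⁻¹
            = (h : Γ) * ((h' : Γ) * (σ w : Γ) * (h' : Γ)⁻¹) * (h : Γ)⁻¹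
          push_cast
          group
        rw [e1] }
  have hφ : ∀ h u, φ h (π u) = π (c h u) := hφ₀
  -- a non-zero vector
  have hW2 : 1 < Nat.card W := by
    rw [hW]
    have : 0 < Nat.card H := Nat.card_pos
    omega
  haveI : Nontrivial W := Finite.one_lt_card_iff_nontrivial.1 hW2
  obtain ⟨w₀, hw₀⟩ := exists_ne (0 : W)
  have hφinj : ∀ h : H, h ≠ 1 → ∀ w, φ h w = w → w = 0 := by
    intro h h1 w hw
    obtain ⟨u, rfl⟩ := hπs w
    rw [hφ, hπeq] at hw
    have e1 : (h : Γ) ≠ 1 := fun e => h1 (Subtype.ext e)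
    have e2 := hfree h h.2 e1 u u.2 hw
    exact (hπk u).2 e2
  have hφne : ∀ (h : H), φ h w₀ ≠ 0 := by
    intro h h0
    obtain ⟨u, rfl⟩ := hπs w₀
    rw [hφ] at h0
    have e1 := (hπk _).1 h0
    have e2 := hZi _ (H.inv_mem h.2) _ e1
    have e3 : ((h : Γ))⁻¹ * ((h : Γ) * u * (h : Γ)⁻¹) * ((h : Γ))⁻¹⁻¹ = u := by group
    rw [e3] at e2
    exact hw₀ ((hπk u).2 e2)
  -- transitivity by counting
  let f : Option H → W := fun o => match o with
    | none => 0
    | some h => φ h w₀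
  have hf : Function.Injective f := by
    rintro (_ | h) (_ | h') e
    · rfl
    · exact absurd e.symm (hφne h')
    · exact absurd e (hφne h)
    · have e1 : φ h w₀ = φ h' w₀ := e
      by_contra hne
      have hne' : h'⁻¹ * h ≠ 1 := fun e2 => hne (by
        rw [inv_mul_eq_one.1 e2])
      have e3 : φ (h'⁻¹ * h) w₀ = w₀ := by
        rw [map_mul]
        show φ h'⁻¹ (φ h w₀) = w₀
        rw [e1]
        show (φ h'⁻¹ * φ h') w₀ = w₀
        rw [← map_mul, inv_mul_cancel, map_one]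
        rfl
      exact hw₀ (hφinj _ hne' _ e3)
  have hfb : Function.Bijective f := hf.bijective_of_nat_card_le (by
    rw [hW, Finite.card_option])
  have hreg : ∀ w, w ≠ 0 → ∃ x : H, φ x w₀ = w := by
    intro w hw
    obtain ⟨o, ho⟩ := hfb.2 w
    cases o with
    | none => exact absurd ho.symm hw
    | some h => exact ⟨h, ho⟩
  obtain ⟨L, instF, instFi, ι, hbij, hφ1, hφ2⟩ := Cfsg.Agent.Lib.Zass.RegField.exists_field φ
    (fun x y => Subtype.ext (hcomm x x.2 y y.2)) hw₀ hreg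
  have hev : ∀ l l' : L, ι l w₀ = ι l' w₀ → l = l' := fun l l' h => hbij.1 h
  have hsurj := hbij.2
  let x : Γ → L := fun g => if hg : g ∈ Q then (hsurj (π ⟨g, hg⟩)).choose else 0
  have hx : ∀ {g : Γ} (hg : g ∈ Q), ι (x g) w₀ = π ⟨g, hg⟩ := by
    intro g hg
    simp only [x, dif_pos hg]
    exact (hsurj (π ⟨g, hg⟩)).choose_spec
  let μ : Γ → L := fun g => if hg : g ∈ H then (hφ1 ⟨g, hg⟩).choose else 1
  have hμ : ∀ {g : Γ} (hg : g ∈ H), ι (μ g) = φ ⟨g, hg⟩ := by
    intro g hg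
    simp only [μ, dif_pos hg]
    exact (hφ1 ⟨g, hg⟩).choose_spec
  refine ⟨L, instF, instFi, x, μ, ?_, ?_, ?_, ?_, ?_, ?_⟩
  · rw [← hW]
    exact Nat.card_eq_of_bijective _ hbij
  · intro u hu v hv
    apply hev
    rw [hx (Q.mul_mem hu hv), map_add]
    show _ = ι (x u) w₀ + ι (x v) w₀
    rw [hx hu, hx hv, ← hπ]
    rfl
  · intro l
    obtain ⟨⟨u, hu⟩, hul⟩ := hπs (ι l w₀)
    refine ⟨u, hu, ?_⟩
    apply hev
    rw [hx hu]
    exact hul
  · intro u hu
    have e1 := hx hu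
    constructor
    · intro h0
      rw [h0, map_zero] at e1
      exact (hπk ⟨u, hu⟩).1 e1.symm
    · intro hz
      apply hev
      rw [e1, (hπk ⟨u, hu⟩).2 hz, map_zero]
      rfl
  · intro h hh u hu
    apply hev
    rw [hx (hQ h hh u hu), map_mul]
    show _ = ι (μ h) (ι (x u) w₀)
    rw [hx hu, hμ hh, hφ]
  · intro l hl
    obtain ⟨h, hh⟩ := hφ2 l hl
    refine ⟨h, h.2, ?_⟩
    apply hbij.1
    show ι (μ h) w₀ = ι l w₀
    rw [hμ h.2, hh]

end Cfsg.Agent.Lib.Suz.TypeA.Quot
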