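import Cfsg.Agent.Lib.Suz.TypeA.Quad
import Cfsg.Agent.Lib.Suz.TypeA.Quot
import Cfsg.Agent.Lib.Suz.Setup

/-!
# The Sylow `2`-subgroup of a Zassenhaus group of Suzuki type is of type A
-/

set_option autoImplicit false
set_option linter.style.haveILetI false
set_option linter.unusedSectionVars false

namespace Cfsg.Agent.Lib.Suz.TypeA.Main

open Cfsg Cfsg.Agent.Lib.Suz.Setup Cfsg.Agent.Lib.Suz.Sect Cfsg.Agent.Lib.Suz.PartB
  Cfsg.Agent.Lib.Zass.Stab

universe u v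

variable {G : Type u} {Ω : Type v} [Group G] [Fintype G] [MulAction G Ω] [Fintype Ω] [IsSimpleGroup G]
  {a b : Ω} {Q : Subgroup G}

/-- **The type A structure.** -/
theorem typeA (hy : Hyp G a b Q) :
    ∃ n : ℕ, Odd n ∧ 1 < n ∧ Nat.card Q = 2 ^ n * 2 ^ n ∧ Nat.card (E (G := G) a b) + 1 = 2 ^ n ∧
      ∃ (F : Type) (_ : Field F) (_ : Fintype F) (φ : F ≃+* F), Fintype.card F = 2 ^ n ∧
        Nonempty (Q ≃* suzukiTypeA F (φ : F →+* F)) := by
  classical
  obtain ⟨L, instF, instFi, lam, ζ, m, pb, hL, hm, hH, hZc⟩ := exists_PB hy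
  letI : Fintype Q := Fintype.ofFinite _
  letI : Fintype (E (G := G) a b) := Fintype.ofFinite _
  haveI : Finite (IrrCharacter G) := Cfsg.Agent.Lib.Char.Ortho.finite_irrCharacter
  letI : Fintype (IrrCharacter G) := Fintype.ofFinite _
  letI : Fintype (Q →* ℤˣ) := Fintype.ofFinite _
  obtain ⟨hN, hXZ, hsqr⟩ := Cfsg.Agent.Lib.Suz.Final.main (cc hy) pb hL hm hy.Qna hH hZc
    (fun x hx y hy' => comm_E hy hx hy')
  obtain ⟨l, hl⟩ := exists_odd_of_isSquare hsqr
  have hsq : ∀ u ∈ Q, u * u ∈ ZZ hy := fun u hu => hXZ ▸ mul_self_mem_sqSub hu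
  have hcard : Nat.card Q = (Nat.card (E (G := G) a b) + 1) * Nat.card (ZZ hy) := by
    rw [hN, hH, hZc]
  obtain ⟨L', instF', instFi', x, μ, hL', hxadd, hxs, hxk, hxeq, hμs⟩ :=
    Cfsg.Agent.Lib.Suz.TypeA.Quot.exists_x (ZZ_le hy) (Znormal pb) hsq pb.nrm (Zinv' pb)
      (fun h hh h1 u hu hc => sec pb.fpf (ZZ_le hy) (Zinv' pb) hh h1 hu hc)
      (fun x hx y hy' => comm_E hy hx hy') hcard
  -- the common field
  have hm0 : m ≠ 0 := by omega
  haveI : Fact (Nat.Prime 2) := ⟨Nat.prime_two⟩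
  letI instFF : Fintype (GaloisField 2 m) := Fintype.ofFinite _
  have hFF : Fintype.card (GaloisField 2 m) = 2 ^ m := by
    rw [← Nat.card_eq_fintype_card]
    exact GaloisField.card 2 m hm0
  have hL'2 : Fintype.card L' = 2 ^ m := by
    rw [← Nat.card_eq_fintype_card, hL', hH]
  let e : L ≃+* GaloisField 2 m := FiniteField.ringEquivOfCardEq (hL.trans hFF.symm)
  let e' : L' ≃+* GaloisField 2 m := FiniteField.ringEquivOfCardEq (hL'2.trans hFF.symm)
  obtain ⟨φ, hφ⟩ := Cfsg.Agent.Lib.Suz.TypeA.Quad.iso_typeA (Q := Q) (H := E (G := G) a b) (Z := ZZ hy)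
    hFF (by omega) (fun g => e' (x g)) (fun g => e (ζ g)) (fun g => e' (μ g)) (fun g => e (lam g))
    (fun u hu v hv => by rw [hxadd u hu v hv, map_add])
    (fun l' => by
      obtain ⟨u, hu, e1⟩ := hxs (e'.symm l')
      exact ⟨u, hu, by rw [e1]; simp⟩)
    (fun u hu => by
      rw [← hxk u hu]
      exact map_eq_zero_iff e' e'.injective)
    (ZZ_le hy)
    pb.Zcent
    (fun u hu v hv => by rw [pb.ζadd u hu v hv, map_add])
    (fun u hu h0 => pb.ζinj u hu ((map_eq_zero_iff e e.injective).1 h0))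
    (fun l' => by
      obtain ⟨u, hu, e1⟩ := pb.ζsurj (e.symm l')
      exact ⟨u, hu, by rw [e1]; simp⟩)
    (fun h hh z hz => by rw [pb.ζeq h hh z hz, map_mul])
    (fun h hh u hu => by rw [hxeq h hh u hu, map_mul])
    pb.nrm
    (fun l' hl' => by
      obtain ⟨h, hh, e1⟩ := hμs (e'.symm l') (by simpa using hl')
      exact ⟨h, hh, by rw [e1]; simp⟩)
    hy.Qna
  refine ⟨m, ?_, ?_, hN, hH, GaloisField 2 m, inferInstance, instFF, φ, hFF, hφ⟩
  · rw [hl]
    exact odd_two_mul_add_one l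
  · omega

end Cfsg.Agent.Lib.Suz.TypeA.Main
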