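import Cfsg.Prelude.Def_LieRecognition
import Mathlib

/-!
# The `2`-group of type A, concretely
-/

set_option autoImplicit false
set_option linter.style.haveILetI false
set_option linter.unusedSectionVars false

namespace Cfsg.Agent.Lib.Suz.TypeA.Mat

open Cfsg

variable {F : Type*} [Field F] (φ : F →+* F)

/-- The matrix with parameters `x, y`. -/
def mat (x y : F) : Matrix (Fin 3) (Fin 3) F := !![1, 0, 0; x, 1, 0; y, φ x, 1]

theorem mat_mul (x y x' y' : F) :
    mat φ x y * mat φ x' y' = mat φ (x + x') (y + y' + φ x * x') := by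
  ext i j
  fin_cases i <;> fin_cases j <;>
    simp [mat, Matrix.mul_apply, Fin.sum_univ_three, map_add] <;> ring

theorem mat_zero : mat φ 0 0 = 1 := by
  ext i j
  fin_cases i <;> fin_cases j <;> simp [mat]

/-- The invertible matrix with parameters `x, y`. -/
def matU (x y : F) : GL (Fin 3) F where
  val := mat φ x y
  inv := mat φ (-x) (φ x * x - y)
  val_inv := by
    rw [mat_mul, ← mat_zero φ]
    congr 1
    · simp
    · ring
  inv_val := by
    rw [mat_mul, ← mat_zero φ]
    congr 1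
    · simp
    · rw [map_neg]
      ring

@[simp] theorem matU_val (x y : F) : ((matU φ x y : GL (Fin 3) F) : Matrix (Fin 3) (Fin 3) F) = mat φ x y := rfl

theorem matU_mul (x y x' y' : F) :
    matU φ x y * matU φ x' y' = matU φ (x + x') (y + y' + φ x * x') :=
  Units.ext (mat_mul φ x y x' y')

theorem matU_zero : matU φ 0 0 = 1 := Units.ext (mat_zero φ)

theorem matU_inv (x y : F) : (matU φ x y)⁻¹ = matU φ (-x) (φ x * x - y) := by
  apply inv_eq_of_mul_eq_one_right
  rw [matU_mul, ← matU_zero φ]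
  congr 1
  · simp
  · ring

theorem matU_mem (x y : F) : matU φ x y ∈ suzukiTypeA F φ :=
  Subgroup.subset_closure ⟨x, y, rfl⟩

theorem mem_iff {g : GL (Fin 3) F} : g ∈ suzukiTypeA F φ ↔ ∃ x y, g = matU φ x y := by
  constructor
  · intro hg
    induction hg using Subgroup.closure_induction with
    | mem g hg =>
      obtain ⟨x, y, h⟩ := hg
      exact ⟨x, y, Units.ext h⟩
    | one => exact ⟨0, 0, (matU_zero φ).symm⟩
    | mul g h _ _ hg hh =>
      obtain ⟨x, y, rfl⟩ := hg
      obtain ⟨x', y', rfl⟩ := hh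
      exact ⟨_, _, matU_mul φ x y x' y'⟩
    | inv g _ hg =>
      obtain ⟨x, y, rfl⟩ := hg
      exact ⟨_, _, matU_inv φ x y⟩
  · rintro ⟨x, y, rfl⟩
    exact matU_mem φ x y

theorem matU_inj {x y x' y' : F} (h : matU φ x y = matU φ x' y') : x = x' ∧ y = y' := by
  have h1 : mat φ x y = mat φ x' y' := congrArg Units.val h
  have h2 := congrFun (congrFun h1 1) 0
  have h3 := congrFun (congrFun h1 2) 0
  simp [mat] at h2 h3
  exact ⟨h2, h3⟩

/-- The first coordinate. -/
def xc (g : suzukiTypeA F φ) : F := ((g : GL (Fin 3) F) : Matrix (Fin 3) (Fin 3) F) 1 0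

/-- The second coordinate. -/
def yc (g : suzukiTypeA F φ) : F := ((g : GL (Fin 3) F) : Matrix (Fin 3) (Fin 3) F) 2 0

/-- The element with parameters `x, y`. -/
def el (x y : F) : suzukiTypeA F φ := ⟨matU φ x y, matU_mem φ x y⟩

@[simp] theorem xc_el (x y : F) : xc φ (el φ x y) = x := by
  simp [xc, el, mat]

@[simp] theorem yc_el (x y : F) : yc φ (el φ x y) = y := by
  simp [yc, el, mat]

theorem exists_el (g : suzukiTypeA F φ) : ∃ x y, g = el φ x y := by
  obtain ⟨x, y, h⟩ := (mem_iff φ).1 g.2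
  exact ⟨x, y, Subtype.ext h⟩

theorem el_mul (x y x' y' : F) : el φ x y * el φ x' y' = el φ (x + x') (y + y' + φ x * x') :=
  Subtype.ext (matU_mul φ x y x' y')

theorem xc_mul (u v : suzukiTypeA F φ) : xc φ (u * v) = xc φ u + xc φ v := by
  obtain ⟨x, y, rfl⟩ := exists_el φ u
  obtain ⟨x', y', rfl⟩ := exists_el φ v
  rw [el_mul]
  simp

theorem yc_mul (u v : suzukiTypeA F φ) : yc φ (u * v) = yc φ u + yc φ v + φ (xc φ u) * xc φ v := by
  obtain ⟨x, y, rfl⟩ := exists_el φ u
  obtain ⟨x', y', rfl⟩ := exists_el φ v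
  rw [el_mul]
  simp

theorem central (u v : suzukiTypeA F φ) (h : xc φ u = 0) : u * v = v * u := by
  obtain ⟨x, y, rfl⟩ := exists_el φ u
  obtain ⟨x', y', rfl⟩ := exists_el φ v
  have hx : x = 0 := by simpa using h
  subst hx
  rw [el_mul, el_mul]
  congr 1
  · ring
  · simp
    ring

theorem eq_one (u : suzukiTypeA F φ) (h1 : xc φ u = 0) (h2 : yc φ u = 0) : u = 1 := by
  obtain ⟨x, y, rfl⟩ := exists_el φ u
  have hx : x = 0 := by simpa using h1
  have hy : y = 0 := by simpa using h2
  subst hx hy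
  exact Subtype.ext (matU_zero φ)

/-- The squaring map in characteristic two. -/
theorem yc_sq [CharP F 2] (u : suzukiTypeA F φ) : yc φ (u * u) = φ (xc φ u) * xc φ u := by
  rw [yc_mul, CharTwo.add_self_eq_zero, zero_add]

end Cfsg.Agent.Lib.Suz.TypeA.Mat
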