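import Cfsg.Agent.Lib.Suz.TypeA.Ext
import Cfsg.Agent.Lib.Suz.TypeA.Mat
import Cfsg.Agent.Lib.Suz.TypeA.Form
import Cfsg.Agent.Lib.Suz.Sect

/-!
# Recognising the `2`-groups of type A

A `2`-group with a central subgroup `Z` and a quotient `Q / Z`, both identified with a field `F`, on which
a group of operators acts by multiplications in such a way that it is transitive on `F ∖ 0` on the
quotient, is of type A: the squaring map is forced to have the form `c * t ^ 2 ^ i * t ^ 2 ^ j`.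
-/

set_option autoImplicit false
set_option linter.style.haveILetI false
set_option linter.unusedSectionVars false

namespace Cfsg.Agent.Lib.Suz.TypeA.Quad

open Cfsg Cfsg.Agent.Lib.Suz.TypeA.Ext Cfsg.Agent.Lib.Suz.TypeA.Mat Cfsg.Agent.Lib.Suz.TypeA.Form
open Cfsg.Agent.Lib.Suz.Sect

variable {Γ : Type*} [Group Γ]

theorem iso_typeA [Finite Γ] {Q H Z : Subgroup Γ} {F : Type*} [Field F] [Fintype F] {m : ℕ}
    (hcard : Fintype.card F = 2 ^ m) (hm : 0 < m) (x ζ μ lam : Γ → F)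
    (hxadd : ∀ u ∈ Q, ∀ v ∈ Q, x (u * v) = x u + x v)
    (hxs : ∀ l, ∃ u ∈ Q, x u = l)
    (hxk : ∀ u ∈ Q, x u = 0 ↔ u ∈ Z)
    (hZQ : Z ≤ Q)
    (Zcent : ∀ z ∈ Z, ∀ u ∈ Q, z * u = u * z)
    (ζadd : ∀ a ∈ Z, ∀ b ∈ Z, ζ (a * b) = ζ a + ζ b)
    (ζinj : ∀ a ∈ Z, ζ a = 0 → a = 1)
    (ζsurj : ∀ l, ∃ a ∈ Z, ζ a = l)
    (hζeq : ∀ h ∈ H, ∀ z ∈ Z, ζ (h * z * h⁻¹) = lam h * ζ z)
    (hxeq : ∀ h ∈ H, ∀ u ∈ Q, x (h * u * h⁻¹) = μ h * x u)
    (nrm : ∀ h ∈ H, ∀ u ∈ Q, h * u * h⁻¹ ∈ Q)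
    (hμ : ∀ l, l ≠ 0 → ∃ h ∈ H, μ h = l)
    (hna : ∃ u ∈ Q, ∃ v ∈ Q, u * v ≠ v * u) :
    ∃ φ : F ≃+* F, Nonempty (Q ≃* suzukiTypeA F (φ : F →+* F)) := by
  classical
  haveI hchar : CharP F 2 := Cfsg.Agent.Lib.Suz.Expand.charP_two hcard hm
  -- basic facts on `x`, `ζ`
  have x1 : x 1 = 0 := by
    have := hxadd 1 Q.one_mem 1 Q.one_mem
    rw [mul_one] at this
    exact left_eq_add.1 this
  have xinv : ∀ u ∈ Q, x u⁻¹ = x u := fun u hu => by
    have := hxadd u hu u⁻¹ (Q.inv_mem hu)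
    rw [mul_inv_cancel, x1] at this
    have e1 : x u + x u = 0 := CharTwo.add_self_eq_zero _
    have e2 : x u + x u⁻¹ = x u + x u := by rw [← this, e1]
    exact add_left_cancel e2
  have ζ1 : ζ 1 = 0 := by
    have := ζadd 1 Z.one_mem 1 Z.one_mem
    rw [mul_one] at this
    exact left_eq_add.1 this
  have hsqZ : ∀ u ∈ Q, u * u ∈ Z := fun u hu => by
    rw [← hxk _ (Q.mul_mem hu hu), hxadd u hu u hu]
    exact CharTwo.add_self_eq_zero _
  have hcmZ : ∀ u ∈ Q, ∀ v ∈ Q, cm u v ∈ Z := fun u hu v hv => by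
    have hv' := Q.inv_mem hv
    have hu' := Q.inv_mem hu
    rw [← hxk _ (Q.mul_mem (Q.mul_mem (Q.mul_mem hu hv) hu') hv'),
      hxadd _ (Q.mul_mem (Q.mul_mem hu hv) hu') _ hv', hxadd _ (Q.mul_mem hu hv) _ hu',
      hxadd _ hu _ hv, xinv u hu, xinv v hv]
    have e1 : x u + x u = 0 := CharTwo.add_self_eq_zero _
    have e2 : x v + x v = 0 := CharTwo.add_self_eq_zero _
    linear_combination e1 + e2
  -- the quadratic map
  choose σ hσQ hσx using hxs
  let s : F → F := fun l => ζ (σ l * σ l)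
  have hs : ∀ u ∈ Q, ζ (u * u) = s (x u) := by
    intro u hu
    set w := σ (x u) with hw
    have hwQ : w ∈ Q := hσQ _
    have hwx : x w = x u := hσx _
    have hz : w⁻¹ * u ∈ Z := by
      rw [← hxk _ (Q.mul_mem (Q.inv_mem hwQ) hu), hxadd _ (Q.inv_mem hwQ) _ hu, xinv w hwQ, hwx]
      exact CharTwo.add_self_eq_zero _
    set z := w⁻¹ * u with hzd
    have hu' : u = w * z := by rw [hzd]; group
    have e1 : u * u = (w * w) * (z * z) := by
      rw [hu']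
      have e2 := Zcent z hz w hwQ
      calc w * z * (w * z) = w * (z * w) * z := by group
        _ = w * (w * z) * z := by rw [e2]
        _ = _ := by group
    have e3 : z * z = 1 := by
      apply ζinj _ (Z.mul_mem hz hz)
      rw [ζadd z hz z hz]
      exact CharTwo.add_self_eq_zero _
    rw [e1, e3, mul_one]
  -- the polarisation
  have hpol : ∀ u ∈ Q, ∀ v ∈ Q, s (x u + x v) = s (x u) + s (x v) + ζ (cm v u) := by
    intro u hu v hv
    rw [← hxadd u hu v hv, ← hs _ (Q.mul_mem hu hv), ← hs u hu, ← hs v hv]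
    have e1 : u * v * (u * v) = (cm v u) * ((u * u) * (v * v)) := by
      have e2 := Zcent _ (hcmZ v hv u hu) u hu
      have e3 : v * u = cm v u * (u * v) := by
        simp only [cm]
        group
      calc u * v * (u * v) = u * (v * u) * v := by group
        _ = u * (cm v u * (u * v)) * v := by rw [← e3]
        _ = (u * cm v u) * u * v * v := by group
        _ = (cm v u * u) * u * v * v := by rw [e2]
        _ = _ := by group
    rw [e1, ζadd _ (hcmZ v hv u hu) _ (Z.mul_mem (hsqZ u hu) (hsqZ v hv)),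
      ζadd _ (hsqZ u hu) _ (hsqZ v hv)]
    ring
  let B : F → F → F := fun a b => s (a + b) - s a - s b
  have hBdef : ∀ a b, s (a + b) = s a + s b + B a b := fun a b => by
    simp only [B]
    ring
  have hBcm : ∀ u ∈ Q, ∀ v ∈ Q, B (x u) (x v) = ζ (cm v u) := fun u hu v hv => by
    simp only [B]
    rw [hpol u hu v hv]
    ring
  have hBsymm : ∀ a b, B a b = B b a := fun a b => by
    simp only [B]
    rw [add_comm a b]
    ring
  have hB1 : ∀ a a' b, B (a + a') b = B a b + B a' b := by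
    intro a a' b
    have hua := hσQ a
    have hua' := hσQ a'
    have hub := hσQ b
    have e1 := hBcm _ (Q.mul_mem hua hua') _ hub
    rw [hxadd _ hua _ hua', hσx, hσx, hσx] at e1
    rw [e1]
    have e2 := hBcm _ hua _ hub
    have e3 := hBcm _ hua' _ hub
    rw [hσx, hσx] at e2 e3
    rw [e2, e3]
    have e4 : cm (σ b) (σ a * σ a') = cm (σ b) (σ a) * cm (σ b) (σ a') := by
      have e5 := Zcent _ (hcmZ _ hub _ hua') _ hua
      simp only [cm] at e5 ⊢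
      calc σ b * (σ a * σ a') * (σ b)⁻¹ * (σ a * σ a')⁻¹
          = σ b * σ a * (σ b)⁻¹ * (σ a)⁻¹ * (σ a * (σ b * σ a' * (σ b)⁻¹ * (σ a')⁻¹)) * (σ a)⁻¹ := by group
        _ = σ b * σ a * (σ b)⁻¹ * (σ a)⁻¹ * ((σ b * σ a' * (σ b)⁻¹ * (σ a')⁻¹) * σ a) * (σ a)⁻¹ := by
            rw [← e5]
        _ = _ := by group
    rw [e4]
    exact ζadd _ (hcmZ _ hub _ hua) _ (hcmZ _ hub _ hua')
  have hB2 : ∀ a b b', B a (b + b') = B a b + B a b' := fun a b b' => by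
    rw [hBsymm, hB1, hBsymm b a, hBsymm b' a]
  have hne : ∃ a b, B a b ≠ 0 := by
    obtain ⟨u, hu, v, hv, huv⟩ := hna
    refine ⟨x u, x v, ?_⟩
    rw [hBcm u hu v hv]
    intro h0
    apply huv
    have e1 := ζinj _ (hcmZ v hv u hu) h0
    simp only [cm] at e1
    have e2 : v * u = u * v := by
      have := mul_inv_eq_one.1 e1
      exact mul_inv_eq_iff_eq_mul.1 this
    exact e2.symm
  have hs0 : s 0 = 0 := by
    have e1 := hs 1 Q.one_mem
    rw [x1, mul_one, ζ1] at e1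
    exact e1.symm
  have heq : ∀ (h : H) (t : F), s (μ h * t) = lam h * s t := by
    rintro ⟨h, hh⟩ t
    have e1 := hxeq h hh (σ t) (hσQ t)
    rw [hσx] at e1
    show s (μ h * t) = lam h * s t
    rw [← e1, ← hs _ (nrm h hh _ (hσQ t))]
    have e2 : h * σ t * h⁻¹ * (h * σ t * h⁻¹) = h * (σ t * σ t) * h⁻¹ := by group
    rw [e2, hζeq h hh _ (hsqZ _ (hσQ t))]
  have hμ' : ∀ l, l ≠ 0 → ∃ h : H, μ h = l := fun l hl => by
    obtain ⟨h, hh, e⟩ := hμ l hl
    exact ⟨⟨h, hh⟩, e⟩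
  obtain ⟨i, j, hij, c, hc, hform⟩ := quadratic_form hcard hm (fun h : H => μ h) (fun h : H => lam h)
    s B hμ' hs0 hBdef hB1 hB2 hne heq
  obtain ⟨ψ, θ, hψθ⟩ := exists_normal_form hcard hm hij hform
  refine ⟨ψ, ?_⟩
  -- the comparison of the two groups
  let x₁ : Q → F := fun u => x u
  let ζ₁ : Q → F := fun u => θ.symm (c⁻¹ * ζ u)
  have hk : ∀ u : Q, x₁ u = 0 → (u : Γ) ∈ Z := fun u hu => (hxk u u.2).1 hu
  refine nonempty_mulEquiv_of_squares x₁ (xc (ψ : F →+* F)) ζ₁ (yc (ψ : F →+* F))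
    (fun t => ψ t * t) (fun u v => hxadd u u.2 v v.2) (xc_mul _) ?_ ?_ (fun u v h => central _ u v h)
    ?_ ?_ ?_ ?_ ?_ ?_ ?_ (fun l => CharTwo.add_self_eq_zero l) ?_ ?_
  · intro l
    obtain ⟨u, hu, e⟩ := (⟨σ l, hσQ l, hσx l⟩ : ∃ u ∈ Q, x u = l)
    exact ⟨⟨u, hu⟩, e⟩
  · intro u v hu
    exact Subtype.ext (Zcent _ (hk u hu) v v.2)
  · intro u v hu hv
    show θ.symm (c⁻¹ * ζ ((u : Γ) * v)) = θ.symm (c⁻¹ * ζ u) + θ.symm (c⁻¹ * ζ v)
    rw [ζadd _ (hk u hu) _ (hk v hv), mul_add, map_add]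
  · intro u v hu hv
    rw [yc_mul, hu, map_zero, zero_mul, add_zero]
  · intro u hu h0
    have e1 : c⁻¹ * ζ u = 0 := by
      have := congrArg θ h0
      simpa [ζ₁] using this
    have e2 : ζ u = 0 := (mul_eq_zero.1 e1).resolve_left (inv_ne_zero hc)
    exact Subtype.ext (ζinj _ (hk u hu) e2)
  · intro u hu hv
    exact eq_one _ u hu hv
  · intro l
    obtain ⟨a, ha, e⟩ := ζsurj (c * θ l)
    refine ⟨⟨a, hZQ ha⟩, (hxk a (hZQ ha)).2 ha, ?_⟩
    show θ.symm (c⁻¹ * ζ a) = l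
    rw [e, ← mul_assoc, inv_mul_cancel₀ hc, one_mul]
    simp
  · intro l
    refine ⟨el _ 0 l, ?_, ?_⟩ <;> simp
  · intro l
    exact ⟨el _ l 0, by simp⟩
  · intro u
    show θ.symm (c⁻¹ * ζ ((u : Γ) * u)) = ψ (x₁ u) * x₁ u
    rw [hs _ u.2, hψθ, ← mul_assoc, inv_mul_cancel₀ hc, one_mul]
    simp [x₁]
  · intro u
    exact yc_sq _ u

end Cfsg.Agent.Lib.Suz.TypeA.Quad
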